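import Cfsg.Agent.H2.ReeTor4
import Cfsg.Agent.H2.SzMult

/-! The Schur multiplier of the small Ree groups. -/

set_option autoImplicit false
set_option linter.unusedSectionVars false
set_option linter.unusedSimpArgs false

namespace Cfsg.Agent.H2

open Cfsg.Agent.L0

theorem cm_one_left {Γ G : Type*} [Group Γ] [Group G] {σ : Γ →* G} (hs : Function.Surjective σ)
    (hc : σ.ker ≤ Subgroup.center Γ) (g : G) : cm hs 1 g = 1 := by
  obtain ⟨g, rfl⟩ := hs g
  rw [← map_one σ, cm_eq hs hc]; group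

theorem cm_swap {Γ G : Type*} [Group Γ] [Group G] {σ : Γ →* G} (hs : Function.Surjective σ) (g g' : G) :
    cm hs g g' * cm hs g' g = 1 := by
  simp only [cm]; group

namespace Ree

variable {K : Type*} [Field K] {m : ℕ} [hK : ReeF K m]
include hK

theorem isCyclic_of_isPGroup {l : ℕ} (hl : l.Prime) (h2 : l ≠ 2) (h3 : l ≠ 3) {P : Subgroup (ReeG K m)}
    (hP : IsPGroup l P) : IsCyclic P := by
  have := finite_G K
  have := Fact.mk hl
  by_cases h : P = ⊥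
  · rw [h]; infer_instance
  obtain ⟨z, -, hz, hle⟩ := exists_center_of_isPGroup hP h
  have e2 : z ^ 2 ≠ 1 := pow_ne_one_of_lt_orderOf two_ne_zero (by have := hl.two_le; omega)
  have e7 := hz ▸ orderOf_dvd_natCard z
  have e8 : ∀ n, l ∣ n → z ^ n = 1 := fun n hn => orderOf_dvd_iff_pow_eq_one.1 (hz ▸ hn)
  rw [card_G'] at e7
  simp only [Nat.Prime.dvd_mul hl] at e7
  rcases e7 with ((e7 | e7) | e7) | e7
  · exact absurd (eq_three_of_dvd hl e7) h3
  · obtain ⟨x, hx⟩ := exists_conj_Ho (e8 _ e7) e2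
    have h4 := Cen_Ho hx (by rwa [Ne, conj_pow_eq_one_iff'])
    have := isCyclic_conjS x⁻¹ (isCyclic_Ho K)
    rw [← h4, Cen_conj, conjS_conjS, inv_mul_cancel, conjS_one] at this
    exact Subgroup.isCyclic_of_le hle
  · obtain ⟨x, hx⟩ := exists_conj_Ao (e8 _ e7) e2
    have h4 := Cen_Ao hx (by rwa [Ne, conj_pow_eq_one_iff'])
    have := isCyclic_conjS x⁻¹ (isCyclic_Do K)
    refine Subgroup.isCyclic_of_le (H' := conjS x⁻¹ (Do K)) fun a ha => mem_conjS.2 ?_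
    rw [inv_inv]
    refine mem_Do_of_odd (by rw [← h4, Cen_conj]; exact conj_mem_conjS x (hle ha)) ?_
    obtain ⟨k, hk⟩ := hP ⟨a, ha⟩
    rw [orderOf_conj']
    exact (hl.odd_of_ne_two h2).pow.of_dvd_nat (orderOf_dvd_of_pow_eq_one (congrArg Subtype.val hk : a ^ l ^ k = 1))
  · have := Cox.isCyclic_Cen ⟨fun e => e2 (by rw [e, one_pow]), e8 _ e7⟩
    exact Subgroup.isCyclic_of_le hle

theorem sq_eq_one_of_two_pow {y : ReeG K m} {k : ℕ} (h : y ^ 2 ^ k = 1) : y ^ 2 = 1 := by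
  induction k generalizing y with
  | zero => rw [pow_zero, pow_one] at h; rw [h, one_pow]
  | succ k ih =>
    rw [pow_succ', pow_mul] at h
    exact sq_eq_one_of_pow_four (by rw [← ih h, ← pow_mul])

variable (K) in
theorem pmult_two : PMult (ReeG K m) 2 0 0 := by
  intro Γ _ _ σ hσ hexp
  have := finite_G K
  have : Fact (Nat.Prime 2) := ⟨Nat.prime_two⟩
  obtain ⟨hs, hc, hd⟩ := hσ
  obtain ⟨T, hT⟩ := hs (t K)
  have hT2 : σ (T ^ 2) = 1 := by rw [map_pow, hT, sq, t_mul_t]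
  have k1 : ∀ X : Γ, σ X ^ 2 = 1 → σ X ≠ 1 → X ^ 2 = T ^ 2 := by
    intro X h2 h1
    obtain ⟨x, hx⟩ := exists_conj_t h2 h1
    obtain ⟨Y, rfl⟩ := hs x
    have h3 : σ ((Y * T * Y⁻¹)⁻¹ * X) = 1 := by simp only [map_mul, map_inv, hT, ← hx, inv_mul_cancel]
    have h4 : Commute (Y * T * Y⁻¹) ((Y * T * Y⁻¹)⁻¹ * X) := central_of hc h3 _
    have h5 := h4.mul_pow 2
    rw [mul_inv_cancel_left, show ((Y * T * Y⁻¹)⁻¹ * X) ^ 2 = 1 from hexp _ h3, mul_one, conj_pow,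
      central_of hc hT2 Y, mul_inv_cancel_right] at h5
    exact h5
  have k2 : ∀ b : ReeG K m, b * b = 1 → b ≠ 1 → t K * b = b * t K → b ≠ t K → cm hs (t K) b = (T ^ 2)⁻¹ := by
    intro b b2 b1 hb ht
    obtain ⟨B, rfl⟩ := hs b
    have e1 := k1 B (by rw [sq, b2]) b1
    have e2 := k1 (T * B) (by rw [map_mul, hT, Commute.mul_pow hb, sq, sq, t_mul_t, b2, one_mul])
      (fun e => ht (by rw [map_mul, hT] at e; rw [← t_inv, inv_eq_of_mul_eq_one_right e]))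
    rw [← hT, cm_eq hs hc]
    have c1 := central_of hc hT2 B
    calc T * B * T⁻¹ * B⁻¹ = (T * B) ^ 2 * (B ^ 2)⁻¹ * (B * (T ^ 2)⁻¹ * B⁻¹) := by simp only [sq]; group
      _ = _ := by
        rw [e1, e2, mul_inv_cancel, one_mul, mul_inv_eq_iff_eq_mul, Commute.inv_right c1]
  have k3 : T ^ 2 = 1 := by
    have e := cm_mul_right' hs hc (g := t K) (y' := j K) (t_mul_psi _) (w K)
    rw [k2 _ w_mul_w w_ne_one t_mul_w t_ne_w.symm, k2 _ j_mul_j j_ne_one (t_mul_psi _) (psi_ne_t _),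
      k2 _ (by rw [mul_assoc, ← mul_assoc (j K), j_comm_w, mul_assoc, j_mul_j, mul_one, w_mul_w]) wj_ne_one
        (Commute.mul_right t_mul_w (t_mul_psi _)) (by rw [← psi_wSL, j, ← map_mul]; exact psi_ne_t _)] at e
    simpa using e
  obtain ⟨P⟩ : Nonempty (Sylow 2 (ReeG K m)) := inferInstance
  have k4 : ∀ X : (P : Subgroup (ReeG K m)).comap σ, X ^ 2 = 1 := fun X => Subtype.ext (by
    by_cases h1 : σ X = 1
    · exact hexp _ h1
    · obtain ⟨k, hk⟩ := P.isPGroup' ⟨σ X, X.2⟩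
      exact (k1 X (sq_eq_one_of_two_pow (congrArg Subtype.val hk)) h1).trans k3)
  let _ : CommGroup ((P : Subgroup (ReeG K m)).comap σ) := { (inferInstance : Group _) with
    mul_comm := fun a b => (Commute.of_orderOf_dvd_two (fun g => orderOf_dvd_of_pow_eq_one (k4 g)) a b).eq }
  have := ker_eq_bot_of_transfer ⟨hs, hc, hd⟩ hexp (P : Subgroup (ReeG K m))
    (Nat.Coprime.pow_right _ ((Nat.Prime.coprime_iff_not_dvd Nat.prime_two).mpr P.not_dvd_index).symm)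
    (C := (P : Subgroup (ReeG K m)).comap σ) (MonoidHom.id _) (fun a _ h1 => h1)
  exact ⟨fun _ => 1, fun _ => ⟨one_mem _, one_pow _⟩, by rw [this]; exact bot_le⟩

variable (K) in
theorem exists_triple : ∃ x z : K, x ≠ 0 ∧ z ≠ 0 ∧ x ^ 2 * sg x + 1 ^ 2 * sg 1 = z ^ 2 * sg z ∧ x⁻¹ + 1⁻¹ ≠ z⁻¹ := by
  have h3 := three_eq_zero K
  by_contra hcon
  push Not at hcon
  have key : ∀ X : K, X ≠ 0 → X ≠ -1 → (1 + X ^ 2 * sg X) * (X + 1) ^ 2 * (sg X + 1) = X ^ 2 * sg X := by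
    intro X hX hX1
    obtain ⟨z, hz⟩ := exists_sq_mul_sg_eq (X⁻¹ ^ 2 * sg X⁻¹ + 1 ^ 2 * sg 1)
    have hz0 : z ≠ 0 := by
      rintro rfl
      refine hX1 (inv_injective (sq_mul_sg_inj ?_))
      simp only [map_zero, mul_zero, map_one] at hz
      rw [inv_neg, inv_one, map_neg, map_one]
      linear_combination -hz
    have h4 := hcon X⁻¹ z (inv_ne_zero hX) hz0 hz.symm
    rw [inv_inv, inv_one] at h4
    have h5 : X + 1 ≠ 0 := by rw [h4]; exact inv_ne_zero hz0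
    have h6 := sg_ne_zero h5
    have h7 := sg_ne_zero hX
    rw [show z = (X + 1)⁻¹ by rw [h4, inv_inv], map_inv₀, map_inv₀, map_one] at hz
    rw [map_add, map_one] at h6 hz
    field_simp at hz
    linear_combination -hz
  obtain ⟨k, hk, hk'⟩ := exists_sq_ne_one K
  have e1 := key k k.ne_zero hk'
  have e2 := key (-k) (neg_ne_zero.2 k.ne_zero) (fun e => hk (neg_injective e))
  rw [map_neg] at e2
  have e3 : sg (k : K) * ((k : K) ^ 2 + 1 ^ 2) * (((k : K) ^ 2) ^ 2 + 1 ^ 2) = 0 := by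
    linear_combination -(1 - (k : K)) ^ 2 * e1 + ((k : K) + 1) ^ 2 * e2 +
      sg (k : K) * ((k : K) ^ 2 + 1) * ((k : K) ^ 4 - 2 * (k : K) ^ 2 + 1) * h3
  rcases mul_eq_zero.1 e3 with e | e
  · rcases mul_eq_zero.1 e with e | e
    · exact sg_ne_zero k.ne_zero e
    · exact one_ne_zero (sq_add_sq_eq_zero e).2
  · exact one_ne_zero (sq_add_sq_eq_zero e).2

variable (K) in
theorem exists_triple' : ∃ x : K, x ≠ 0 ∧ x + 1 ≠ 0 ∧ x⁻¹ + 1⁻¹ ≠ (x + 1)⁻¹ := by
  have h3 := three_eq_zero K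
  obtain ⟨k, hk, hk'⟩ := exists_sq_ne_one K
  have h1 : (k : K) + 1 ≠ 0 := fun e => hk' (eq_neg_of_add_eq_zero_left e)
  refine ⟨k, k.ne_zero, h1, fun e => hk ?_⟩
  have := k.ne_zero
  field_simp at e
  have : ((k : K) - 1) ^ 2 = 0 := by linear_combination e - k * h3
  exact sub_eq_zero.1 (pow_eq_zero_iff two_ne_zero |>.1 this)

variable (K) in
theorem pmult_three : PMult (ReeG K m) 3 0 0 := by
  intro Γ _ _ σ hσ hexp
  have := finite_G K
  have : Fact (Nat.Prime 3) := ⟨Nat.prime_three⟩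
  have h3 := three_eq_zero K
  obtain ⟨hs, hc, hd⟩ := hσ
  have ex : ∀ ζ : Γ, σ ζ = 1 → ζ * ζ = 1 → ζ = 1 := fun ζ h1 h2 => by
    have : ζ ^ 3 = 1 := hexp ζ h1
    rwa [pow_succ, sq, h2, one_mul] at this
  have σc : ∀ {g g' : ReeG K m}, g * g' = g' * g → σ (cm hs g g') = 1 := fun h => by rw [σ_cm, h]; group
  obtain ⟨T, hT⟩ := hs (t K)
  obtain ⟨x₀, hx₀, hx₁, hx₂⟩ := exists_triple' K
  -- the preimage of the centre of `U` is central in the preimage of `U`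
  have z1 : ∀ c d : K, cm hs (u 0 0 c) (u 0 0 d) = 1 := by
    intro c d
    obtain ⟨a, ha⟩ := exists_sq_mul_sg_eq (-d)
    have : u 0 0 d = u a 0 0 * u a 0 0 * u a 0 0 := by rw [← sq, ← pow_succ, u_cube, ha, neg_neg]
    rw [this, cm_mul_right' hs hc (z_comm _ _ _ _), cm_mul_right' hs hc (z_comm _ _ _ _), ← sq, ← pow_succ]
    exact hexp _ (σc (z_comm _ _ _ _))
  have z2 : ∀ c b : K, cm hs (u 0 0 c) (u 0 b 0) = 1 := by
    intro c b
    refine ex _ (σc (z_comm _ _ _ _)) ?_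
    have e1 := cm_conj' hs hc (z_comm c 0 b 0) (t K)
    rw [t_inv, t_u_t, t_u_t, neg_zero] at e1
    nth_rewrite 1 [← e1]
    rw [← cm_mul_left' hs hc (z_comm _ _ _ _), u0_mul, add_zero, add_neg_cancel, u_zero, cm_one_left hs hc]
  have split : ∀ b c : K, u 0 b c = u 0 b 0 * u 0 0 c := fun b c => by rw [u0_mul]; simp
  have z3 : ∀ c a b d : K, cm hs (u 0 0 c) (u a b d) = cm hs (u 0 0 c) (u a 0 0) := by
    intro c a b d
    rw [u_split a b d, cm_mul_right' hs hc (z_comm _ _ _ _), split b d, cm_mul_right' hs hc (z_comm _ _ _ _), z1, z2,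
      mul_one, mul_one]
  have z4 : ∀ c a : K, cm hs (u 0 0 c) (u a 0 0) = 1 := by
    obtain ⟨x, z, hx, hz, e1, e2⟩ := exists_triple K
    refine form_trivial (fun c a => cm hs (u 0 0 c) (u a 0 0)) (fun b b' a => ?_) (fun b a a' => ?_)
      (fun t => t ^ 2 * sg t) (fun t ht b a => ?_) hx one_ne_zero hz e1 e2
    · rw [← cm_mul_left' hs hc (z_comm _ _ _ _), u0_mul, add_zero, add_comm]
    · rw [← cm_mul_right' hs hc (z_comm _ _ _ _), u_mul, z3 _ _ (0 + 0 - _)]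
    · rw [← cm_conj' hs hc (z_comm b a 0 0) (h (Units.mk0 t ht)), h_conj_u, h_conj_u]
      simp
  have cent : ∀ {X Y : Γ} {c a b d : K}, σ X = u 0 0 c → σ Y = u a b d → Y * X * Y⁻¹ = X := by
    intro X Y c a b d hX hY
    have := cm_eq hs hc X Y
    rw [hX, hY, z3, z4] at this
    have h5 : X * Y = Y * X := by rw [← mul_inv_eq_one, mul_inv_rev, ← mul_assoc, ← this]
    rw [← h5, mul_inv_cancel_right]
  let β : K → Γ := fun c => cm hs (t K) (u 0 0 c)
  have σβ : ∀ c, σ (β c) = u 0 0 c := by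
    intro c
    rw [σ_cm, t_inv, t_u_t, u0_inv, neg_zero, u0_mul]
    apply u_congr <;> grind
  have βadd : ∀ c d, β (c + d) = β c * β d := by
    intro c d
    obtain ⟨X, hX⟩ := hs (u 0 0 c)
    have : u 0 0 (c + d) = σ X * u 0 0 d := by rw [hX, u0_mul, add_zero]
    simp only [β]
    rw [this, cm_mul_right hs hc, cent (σβ d) hX, hX]
  have β0 : β 0 = 1 := by have := βadd 0 0; rwa [add_zero, left_eq_mul] at this
  have βconj : ∀ (Y : Γ) (k : Kˣ), σ Y = h k → ∀ c, Y * β c * Y⁻¹ = β ((k : K) ^ 2 * sg (k : K) * c) := by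
    intro Y k hY c
    rw [← cm_conj hs hc, hY, h_conj_u, ← t_mul_h, mul_inv_cancel_right, mul_zero, mul_zero]
  -- the preimage of the derived group of `U`
  have x1 : ∀ b d : K, cm hs (u 0 b 0) (u 0 d 0) = 1 := by
    have a1 : ∀ b b' a : K, cm hs (u 0 (b + b') 0) (u 0 a 0) = cm hs (u 0 b 0) (u 0 a 0) * cm hs (u 0 b' 0) (u 0 a 0) :=
      fun b b' a => by rw [← cm_mul_left' hs hc (u0_comm _ _ _ _), u0_mul, add_zero, add_comm]
    have a2 : ∀ b a a' : K, cm hs (u 0 b 0) (u 0 (a + a') 0) = cm hs (u 0 b 0) (u 0 a 0) * cm hs (u 0 b 0) (u 0 a' 0) :=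
      fun b a a' => by rw [← cm_mul_right' hs hc (u0_comm _ _ _ _), u0_mul, add_zero]
    refine form_trivial (fun b a => cm hs (u 0 b 0) (u 0 a 0)) a1 a2 id (fun s ht b a => ?_) hx₀ one_ne_zero hx₁ rfl hx₂
    obtain ⟨k, hk⟩ := exists_unit_x (b := (1 : K)) one_ne_zero ht
    have e := cm_conj' hs hc (u0_comm b 0 a 0) (h k)
    rw [h_conj_u, h_conj_u, mul_zero, mul_zero] at e
    rw [← e]
    rcases hk with hk | hk <;> rw [mul_one] at hk <;> rw [hk]
    · rfl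
    · have e1 := a1 (s * b) (-s * b) (s * a)
      have e2 := a2 (-s * b) (-s * a) (s * a)
      rw [show s * b + -s * b = 0 by ring, u_zero, cm_one_left hs hc] at e1
      have e3 := cm_swap hs (u 0 (-s * b) 0) 1
      rw [cm_one_left hs hc, mul_one] at e3
      rw [show -s * a + s * a = 0 by ring, u_zero, e3] at e2
      exact mul_right_cancel (e1.symm.trans e2)
  have x2 : ∀ b c d e : K, cm hs (u 0 b c) (u 0 d e) = 1 := by
    intro b c d e
    have := cm_swap hs (u 0 b 0) (u 0 0 e)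
    rw [z2, mul_one] at this
    rw [split b c, cm_mul_left' hs hc (u0_comm _ _ _ _), z3, z4, one_mul, split d e,
      cm_mul_right' hs hc (u0_comm _ _ _ _), x1, one_mul, this]
  have cent2 : ∀ {X Y : Γ} {b c d e : K}, σ X = u 0 b c → σ Y = u 0 d e → X * Y = Y * X := by
    intro X Y b c d e hX hY
    have := cm_eq hs hc X Y
    rw [hX, hY, x2] at this
    rw [← mul_inv_eq_one, mul_inv_rev, ← mul_assoc, ← this]
  have σx : ∀ b a d e : K, σ (cm hs (u 0 b 0) (u a d e)) = u 0 0 (-(a * b)) := by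
    intro b a d e
    rw [σ_cm, u_conj, u_inv, u_mul]
    apply u_congr <;> simp <;> grind
  have x3 : ∀ b a d e : K, cm hs (u 0 b 0) (u a d e) = β (-(a * b)) := by
    intro b a d e
    obtain ⟨Y, hY⟩ := hs (u a 0 0)
    rw [u_split a d e, ← hY, cm_mul_right hs hc, x2, mul_one, mul_inv_cancel, mul_one, hY, ← mul_inv_eq_one]
    have e0 : σ (cm hs (u 0 b 0) (u a 0 0) * (β (-(a * b)))⁻¹) = 1 := by rw [map_mul, map_inv, σx, σβ, mul_inv_cancel]
    refine ex _ e0 ?_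
    have e1 := cm_conj hs hc T (u 0 b 0) (u a 0 0)
    rw [hT, t_inv, t_u_t, t_u_t, neg_zero] at e1
    have e2 := cm_mul_right hs hc (u 0 b 0) Y (u (-a) 0 0)
    rw [hY, u_mul, add_neg_cancel, x2, cent (σx _ _ _ _) hY, e1] at e2
    have e3 := βconj T (-1) hT (-(a * b))
    have e4 := βadd (-(a * b)) (a * b)
    rw [neg_add_cancel, β0] at e4
    simp only [Units.val_neg, Units.val_one, map_neg, map_one, even_two, Even.neg_pow, one_pow, mul_neg, mul_one, neg_mul,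
      one_mul, neg_neg] at e3
    generalize cm hs (u 0 b 0) (u a 0 0) = C at *
    generalize β (-(a * b)) = B at *
    have c1 := central_of hc e0 T
    have c2 := central_of hc e0 B
    calc C * B⁻¹ * (C * B⁻¹) = C * (B⁻¹ * (C * B⁻¹ * B)) * (B⁻¹ * (B * β (a * b))) * (β (a * b))⁻¹ * B⁻¹ := by group
      _ = C * (T * (C * B⁻¹) * T⁻¹) * (T * B * T⁻¹) * (B * β (a * b))⁻¹ := by
          rw [← c2, c1, e3]; group
      _ = C * (T * C * T⁻¹) * (B * β (a * b))⁻¹ := by group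
      _ = 1 := by rw [← e2, ← e4]; group
  obtain ⟨k₀, hk₀, hk₁⟩ := exists_sq_ne_one K
  have hκ : (k₀ : K) * sg (k₀ : K) - 1 ≠ 0 := fun e => by
    rcases sq_eq_one_of_mul_sg (sub_eq_zero.1 e) with e | e
    exacts [hk₀ e, hk₁ e]
  let γ : K → Γ := fun b => cm hs (h k₀) (u 0 (b / ((k₀ : K) * sg (k₀ : K) - 1)) 0)
  have σγ : ∀ b, σ (γ b) = u 0 b 0 := by
    intro b
    rw [σ_cm, h_conj_u, u0_inv, mul_zero, u0_mul]
    apply u_congr
    · rfl
    · field_simp; ring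
    · simp
  have γadd : ∀ b d, γ (b + d) = γ b * γ d := by
    intro b d
    obtain ⟨X, hX⟩ := hs (u 0 (b / ((k₀ : K) * sg (k₀ : K) - 1)) 0)
    have : u 0 ((b + d) / ((k₀ : K) * sg (k₀ : K) - 1)) 0 = σ X * u 0 (d / ((k₀ : K) * sg (k₀ : K) - 1)) 0 := by
      rw [hX, u0_mul, add_zero, add_div]
    simp only [γ]
    rw [this, cm_mul_right hs hc, cent2 hX (σγ d), mul_inv_cancel_right, hX]
  have γ0 : γ 0 = 1 := by have := γadd 0 0; rwa [add_zero, left_eq_mul] at this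
  have γconj : ∀ (Y : Γ) (k : Kˣ), σ Y = h k → ∀ b, Y * γ b * Y⁻¹ = γ ((k : K) * sg (k : K) * b) := by
    intro Y k hY b
    rw [← cm_conj hs hc, hY, h_conj_u, h_comm k, mul_inv_cancel_right, mul_zero, mul_zero, ← mul_div_assoc]
  let δ : K → K → Γ := fun b c => γ b * β c
  have σδ : ∀ b c, σ (δ b c) = u 0 b c := fun b c => by rw [map_mul, σγ, σβ, ← split]
  have δadd : ∀ b c d e, δ (b + d) (c + e) = δ b c * δ d e := fun b c d e => by
    simp only [δ, γadd, βadd]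
    rw [mul_assoc, mul_assoc, ← mul_assoc (γ d), cent2 (σγ d) (σβ c), mul_assoc]
  have δconj : ∀ (Y : Γ) (a d e : K), σ Y = u a d e → ∀ b c, Y * δ b c * Y⁻¹ = δ b (c + a * b) := by
    intro Y a d e hY b c
    have e1 := cm_eq hs hc (γ b) Y
    rw [σγ, hY, x3] at e1
    have e4 := βadd (-(a * b)) (a * b)
    rw [neg_add_cancel, β0] at e4
    simp only [δ]
    rw [← conj_mul, cent (σβ c) hY, add_comm, βadd, ← mul_assoc, cent2 (σγ b) (σβ _),
      ← inv_eq_of_mul_eq_one_right e4.symm, e1]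
    group
  choose cb cc hcb using fun g : ReeG K m => show ∃ b c : K, ∀ b' c', g = u 0 b' c' → b = b' ∧ c = c' by
    by_cases hg : ∃ b c, g = u 0 b c
    · obtain ⟨b, c, rfl⟩ := hg
      exact ⟨b, c, fun b' c' e => (u_inj e).2⟩
    · exact ⟨0, 0, fun b' c' e => absurd ⟨b', c', e⟩ hg⟩
  let π : Γ → Γ := fun X => X * (δ (cb (σ X)) (cc (σ X)))⁻¹
  have π1 : ∀ ζ b c, σ ζ = 1 → π (ζ * δ b c) = ζ := fun ζ b c hζ => by
    obtain ⟨e1, e2⟩ := hcb (σ (ζ * δ b c)) b c (by rw [map_mul, hζ, one_mul, σδ])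
    simp only [π]
    rw [e1, e2, mul_inv_cancel_right]
  have π2 : ∀ X, (∃ b c, σ X = u 0 b c) → ∃ ζ b c, σ ζ = 1 ∧ X = ζ * δ b c := fun X ⟨b, c, hX⟩ =>
    ⟨X * (δ b c)⁻¹, b, c, by rw [map_mul, map_inv, hX, σδ, mul_inv_cancel], by group⟩
  have πmul : ∀ X Y, (∃ b c, σ X = u 0 b c) → (∃ b c, σ Y = u 0 b c) → π (X * Y) = π X * π Y := by
    intro X Y hX hY
    obtain ⟨ζ, b, c, h1, rfl⟩ := π2 X hX
    obtain ⟨ξ, d, e, h2, rfl⟩ := π2 Y hY
    rw [π1 _ _ _ h1, π1 _ _ _ h2, mul_assoc, ← mul_assoc (δ b c), central_of hc h2, mul_assoc, ← δadd, ← mul_assoc,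
      π1 _ _ _ (by rw [map_mul, h1, h2, one_mul])]
  have πconj : ∀ X Y, (∃ b c, σ X = u 0 b c) → ((∃ a d e, σ Y = u a d e) ∨ ∃ k, σ Y = h k) → π (Y * X * Y⁻¹) = π X := by
    intro X Y hX hY
    obtain ⟨ζ, b, c, h1, rfl⟩ := π2 X hX
    rw [π1 _ _ _ h1, ← conj_mul, central_of hc h1, mul_inv_cancel_right]
    rcases hY with ⟨a, d, e, hY⟩ | ⟨k, hY⟩
    · rw [δconj Y a d e hY, π1 _ _ _ h1]
    · have : Y * δ b c * Y⁻¹ = δ ((k : K) * sg (k : K) * b) ((k : K) ^ 2 * sg (k : K) * c) := by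
        simp only [δ]; rw [← conj_mul, γconj Y k hY, βconj Y k hY]
      rw [this, π1 _ _ _ h1]
  have σu : ∀ a b c d e f : K, ∃ b' c', σ (cm hs (u a b c) (u d e f)) = u 0 b' c' := fun a b c d e f => by
    rw [σ_cm, u_conj, u_inv, u_mul, add_neg_cancel]; exact ⟨_, _, rfl⟩
  have σu' : ∀ {Y : Γ} {a b c : K}, σ Y = u a b c → ∀ X, (∃ b c, σ X = u 0 b c) → ∃ b c, σ (Y * X * Y⁻¹) = u 0 b c := by
    rintro Y a b c hY X ⟨d, e, hX⟩
    rw [map_mul, map_mul, map_inv, hX, hY, u_conj]; exact ⟨_, _, rfl⟩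
  have fr : ∀ a b c d e f d' e' f' : K, π (cm hs (u a b c) (u d e f * u d' e' f')) =
      π (cm hs (u a b c) (u d e f)) * π (cm hs (u a b c) (u d' e' f')) := by
    intro a b c d e f d' e' f'
    obtain ⟨Y, hY⟩ := hs (u d e f)
    rw [← hY, cm_mul_right hs hc, hY, πmul _ _ (σu _ _ _ _ _ _) (σu' hY _ (σu _ _ _ _ _ _)),
      πconj _ _ (σu _ _ _ _ _ _) (Or.inl ⟨_, _, _, hY⟩)]
  have fl : ∀ a b c d e f d' e' f' : K, π (cm hs (u d e f * u d' e' f') (u a b c)) =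
      π (cm hs (u d' e' f') (u a b c)) * π (cm hs (u d e f) (u a b c)) := by
    intro a b c d e f d' e' f'
    obtain ⟨Y, hY⟩ := hs (u d e f)
    rw [← hY, cm_mul_left hs hc, hY, πmul _ _ (σu' hY _ (σu _ _ _ _ _ _)) (σu _ _ _ _ _ _),
      πconj _ _ (σu _ _ _ _ _ _) (Or.inl ⟨_, _, _, hY⟩)]
  have πβ : ∀ c, π (β c) = 1 := fun c => by
    have := π1 1 0 c (map_one σ)
    simpa only [δ, γ0, one_mul] using this
  have f0 : ∀ a b c e f : K, π (cm hs (u 0 e f) (u a b c)) = 1 := by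
    intro a b c e f
    have := πβ 0
    rw [β0] at this
    rw [split e f, fl, z3, z4, x3, πβ, this, one_mul]
  have f0' : ∀ a b c e f : K, π (cm hs (u a b c) (u 0 e f)) = 1 := by
    intro a b c e f
    have h5 := πβ 0
    have h6 := πmul _ _ (σu a b c 0 e f) (σu 0 e f a b c)
    rw [β0] at h5
    rw [cm_swap, h5, f0, mul_one] at h6
    exact h6.symm
  have f1 : ∀ a b c d e f : K, π (cm hs (u a b c) (u d e f)) = π (cm hs (u a 0 0) (u d 0 0)) := by
    intro a b c d e f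
    rw [u_split d e f, fr, f0', mul_one, u_split a b c, fl, f0, one_mul]
  have f2 : ∀ a d : K, π (cm hs (u a 0 0) (u d 0 0)) = 1 := by
    refine form_trivial (fun a d => π (cm hs (u a 0 0) (u d 0 0))) (fun a b c => ?_) (fun a b c => ?_) id
      (fun s ht a d => ?_) hx₀ one_ne_zero hx₁ rfl hx₂
    · rw [← fl, u_mul, f1 _ (0 + 0 - _), add_comm]
    · rw [← fr, u_mul, f1 _ _ _ _ (0 + 0 - _)]
    · obtain ⟨Y, hY⟩ := hs (h (Units.mk0 s ht))
      rw [← πconj _ Y (σu a 0 0 d 0 0) (Or.inr ⟨_, hY⟩), ← cm_conj hs hc, hY, h_conj_u, h_conj_u]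
      simp
  let δH : Multiplicative (K × K) →* Γ := MonoidHom.mk' (fun b => δ b.toAdd.1 b.toAdd.2) fun a b => δadd _ _ _ _
  have hle : commutator ((Qp (inf K)).comap σ) ≤ δH.range.subgroupOf _ := by
    rw [commutator_def, Subgroup.commutator_le]
    rintro ⟨X, hX⟩ - ⟨Y, hY⟩ -
    obtain ⟨a, b, c, hX⟩ := mem_Qp_inf.1 hX
    obtain ⟨d, e, f, hY⟩ := mem_Qp_inf.1 hY
    obtain ⟨ζ, b', c', h1, h2⟩ := π2 _ (σu a b c d e f)
    have h4 := (f1 a b c d e f).trans (f2 a d)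
    rw [h2, π1 _ _ _ h1] at h4
    refine ⟨Multiplicative.ofAdd (b', c'), ?_⟩
    change δ b' c' = X * Y * X⁻¹ * Y⁻¹
    rw [← cm_eq hs hc, hX, hY, h2, h4, one_mul]
  have := ker_eq_bot_of_transfer ⟨hs, hc, hd⟩ hexp (Qp (inf K))
    (Nat.Coprime.pow_right _ ((Nat.Prime.coprime_iff_not_dvd Nat.prime_three).mpr (sylQ (inf K)).not_dvd_index).symm)
    Abelianization.of (fun a ha h1 => by
      rw [← MonoidHom.mem_ker, Abelianization.ker_of] at h1
      obtain ⟨b, hb⟩ := hle h1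
      change δ b.toAdd.1 b.toAdd.2 = a at hb
      have h3 := σδ b.toAdd.1 b.toAdd.2
      rw [hb, MonoidHom.mem_ker.1 ha, eq_comm, u_eq_one] at h3
      rw [h3.2.1, h3.2.2] at hb
      exact Subtype.ext (by rw [← hb]; simp only [δ, γ0, β0, one_mul]; rfl))
  exact ⟨fun _ => 1, fun _ => ⟨one_mem _, one_pow _⟩, by rw [this]; exact bot_le⟩

variable (K) in
theorem schur : HasSchurMultiplier (ReeG K m) (Multiplicative (ZMod 1)) := by
  have := finite_G K
  exact hasSchur_of (lowerMult_one _) (upper_cyclic (k2 := 0) (k3 := 0) rfl ((pmult_two K).mono zero_le_one)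
    ((pmult_three K).mono zero_le_one) fun p hp h2 h3 => pmult_of_cyclic hp fun P hP => isCyclic_of_isPGroup hp h2 h3 hP)

end Ree

end Cfsg.Agent.H2
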